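import Cfsg.Agent.Chev.Cox
import Cfsg.Agent.Chev.Simple
/-! The centre of the Weyl group (`center_cases`, `IsRefl.center_cox`, `IsRefl.center_cox_bot`) and
its generation by a Coxeter element and some simple reflections (`IsRefl.gen_top`, `IsRefl.gen_cox`). -/
namespace Cfsg.Agent.Chev
open Cfsg.Lie Finset
variable {D : ChevalleyDatum} [g : Good D]

theorem W_ext_sm {w w' : WG D} (h : ∀ i : Sm D, w • sm i = w' • sm i) : w = w' :=
  W_ext fun r => rtv_injective (by rw [rtv_smul_eq_sum, rtv_smul_eq_sum w']; simp only [h])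

theorem smul_eq_or_of_center {z : WG D} (hz : z ∈ Subgroup.center (WG D)) (r : Rt D) :
    z • r = r ∨ z • r = ng r :=
  eq_or_of_rW_eq (by rw [rW_conj, ← Subgroup.mem_center_iff.mp hz, mul_inv_cancel_right])

theorem center_cases [c : Conn D] {z : WG D} (hz : z ∈ Subgroup.center (WG D)) :
    z = 1 ∨ ∀ i : Sm D, z • sm i = ng (sm i) := by
  obtain ⟨θ, h0, h1⟩ := c.top
  have key (i : Sm D) : rtv (z • (⟨θ, h0⟩ : Rt D)) i = rtv ⟨θ, h0⟩ i * rtv (z • sm i) i := by
    rw [rtv_smul_eq_sum, Finset.sum_apply, sum_eq_single i]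
    · simp
    · intro j _ hj
      rcases smul_eq_or_of_center hz (sm j) with e | e <;> simp [e, rtv_sm, hj.symm]
    · simp
  have h2 (i : Sm D) : rtv (⟨θ, h0⟩ : Rt D) i ≠ 0 := fun e => h1 i i.2 ((cov_eq_zero_iff _ i).mpr e)
  rcases smul_eq_or_of_center hz ⟨θ, h0⟩ with e | e
  · refine .inl (eq_one_iff_sm.mpr fun i => (smul_eq_or_of_center hz _).resolve_right fun e' => h2 i ?_)
    have := key i
    rw [e, e'] at this; simp [rtv_sm] at this; omega
  · refine .inr fun i => (smul_eq_or_of_center hz _).resolve_left fun e' => h2 i ?_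
    have := key i
    rw [e, e'] at this; simp [rtv_sm] at this; omega

theorem smul_eq_ng {z : WG D} (h : ∀ i : Sm D, z • sm i = ng (sm i)) (r : Rt D) : z • r = ng r :=
  rtv_injective (by
    have := rtv_smul_eq_sum (1 : WG D) r
    simp only [one_smul] at this
    simp only [rtv_smul_eq_sum z r, h, rtv_ng, smul_neg, sum_neg_distrib, ← this])

theorem mem_center_of_ng {z : WG D} (h : ∀ i : Sm D, z • sm i = ng (sm i)) : z ∈ Subgroup.center (WG D) :=
  Subgroup.mem_center_iff.mpr fun w => W_ext fun r => by simp [mul_smul, smul_eq_ng h]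

theorem center_eq_of_ng [Conn D] {z : WG D} (h : ∀ i : Sm D, z • sm i = ng (sm i)) :
    (Subgroup.center (WG D) : Set (WG D)) = {1, z} ∧ 1 ≠ z := by
  refine ⟨Set.ext fun y => ⟨fun hy => (center_cases hy).imp id fun e => W_ext_sm fun i => (e i).trans (h i).symm,
    ?_⟩, ?_⟩
  · rintro (rfl | rfl)
    exacts [one_mem _, mem_center_of_ng h]
  · rintro rfl
    exact ne_ng _ ((one_smul _ _).symm.trans (h ⟨0, by have := g.two_le_rank; omega⟩))

theorem map_cox {M : CoxeterMatrix (Sm D)} {e : WG D ≃* M.Group} (he : ∀ i, e (sr i) = M.simple i) :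
    e (wd D (List.range D.rank)) = ((List.finRange D.rank).map M.simple).prod := by
  rw [← List.map_coe_finRange_eq_range, wd_map, map_list_prod, List.map_map]
  simp only [Function.comp_def, he]

namespace IsRefl
variable {T : ℕ} (h : IsRefl D T) {M : CoxeterMatrix (Sm D)}
  (he : ∃ e : WG D ≃* M.Group, ∀ i, e (sr i) = M.simple i)
include h he

theorem center_cox [Conn D] {m : ℕ}
    (hm : allLt D.rank (fun i => Nat.beq (iter (wact T (List.range D.rank)) m (D.simple i)) (D.neg (D.simple i))) = true) :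
    Nat.card (Subgroup.center M.Group) = 2 ∧
      Subgroup.center M.Group ≤ Subgroup.zpowers ((List.finRange D.rank).map M.simple).prod := by
  obtain ⟨e, he⟩ := he
  obtain ⟨h1, h2⟩ := center_eq_of_ng (z := wd D (List.range D.rank) ^ m) fun i => Fin.ext (by
    rw [h.pow_smul (by simp)]; simpa using allLt_iff.mp hm i i.2)
  refine ⟨?_, fun y hy => ?_⟩
  · rw [← Nat.card_congr (Subgroup.centerCongr e).toEquiv, ← SetLike.coe_sort_coe, h1, Nat.card_coe_set_eq,
      Set.ncard_pair h2]
  · have h3 : e.symm y ∈ (Subgroup.center (WG D) : Set (WG D)) := ((Subgroup.centerCongr e).symm ⟨y, hy⟩).2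
    rw [← e.apply_symm_apply y, ← map_cox he]
    rcases h1 ▸ h3 with e' | e'
    · rw [e', map_one]; exact one_mem _
    · rw [e', map_pow]; exact Subgroup.npow_mem_zpowers _ _

theorem center_cox_bot [Conn D] {l : List ℕ} (hl : ∀ i ∈ l, i < D.rank)
    (h1 : ∀ i < D.rank, ∃ j < D.rank, wact T l (D.simple i) = D.neg (D.simple j))
    (h2 : ∃ i < D.rank, wact T l (D.simple i) ≠ D.neg (D.simple i)) : Subgroup.center M.Group = ⊥ := by
  obtain ⟨e, he⟩ := he
  have h3 : wd D l = w0 Set.univ := eq_w0 (by rw [WJ_univ]; trivial) fun i _ => by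
    obtain ⟨j, hj, e⟩ := h1 i i.2
    rw [show wd D l • sm i = ng (sm ⟨j, hj⟩) from Fin.ext (by rw [h.wd_smul hl]; exact e)]
    exact not_pos_ng_sm _
  refine eq_bot_iff.mpr fun y hy => ?_
  rcases center_cases ((Subgroup.centerCongr e).symm ⟨y, hy⟩).2 with e' | e'
  · exact e.symm.map_eq_one_iff.mp e'
  · obtain ⟨i, hi, h2⟩ := h2
    have h4 := eq_w0 (J := Set.univ) (WJ_univ (D := D) ▸ Subgroup.mem_top _) fun j _ => (e' j).symm ▸ not_pos_ng_sm j
    have := e' ⟨i, hi⟩
    rw [h4, ← h3] at this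
    exact absurd ((h.wd_smul hl _).symm.trans (congrArg Fin.val this)) h2

end IsRefl

/-- Expansion of a word in the generators `G`. -/
def flatW (G : List (List ℕ)) (u : List ℕ) : List ℕ := u.flatMap fun k => G.getD k []

theorem wd_flatW_mem {K : Subgroup (WG D)} {G : List (List ℕ)} (hG : ∀ l ∈ G, wd D l ∈ K) (u : List ℕ) :
    wd D (flatW G u) ∈ K := by
  induction u with
  | nil => exact one_mem K
  | cons k u ih =>
    rw [flatW, List.flatMap_cons, wd_append]
    refine mul_mem ?_ ih
    rw [List.getD_eq_getElem?_getD]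
    rcases e : G[k]? with _ | l
    exacts [one_mem K, hG l (List.mem_of_getElem? e)]

variable (D) in
/-- The certificate that the words `G` generate the Weyl group: `s_j u_j = v_j`. -/
def genOK (T : ℕ) (G : List (List ℕ)) (C : List (List ℕ × List ℕ)) : Bool :=
  band (allL G fun l => allL l fun i => Nat.blt i D.rank) <| allLt D.rank fun j => allLt D.rank fun i =>
    Nat.beq (wact T (j :: flatW G (C.getD j ([], [])).1) (D.simple i)) (wact T (flatW G (C.getD j ([], [])).2) (D.simple i))

theorem IsRefl.gen_top {T : ℕ} (h : IsRefl D T) {K : Subgroup (WG D)} {G : List (List ℕ)}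
    (hG : ∀ l ∈ G, wd D l ∈ K) {C : List (List ℕ × List ℕ)} (hC : genOK D T G C = true) : K = ⊤ := by
  simp only [genOK, band_iff, allL_iff, allLt_iff, Nat.blt_eq, Nat.beq_eq] at hC
  have hf (u : List ℕ) : ∀ i ∈ flatW G u, i < D.rank := fun i hi => by
    obtain ⟨k, -, hk⟩ := List.mem_flatMap.mp hi
    rw [List.getD_eq_getElem?_getD] at hk
    rcases e : G[k]? with _ | l
    · simp [e] at hk
    · exact hC.1 l (List.mem_of_getElem? e) i (by simpa [e] using hk)
  rw [eq_top_iff, ← WJ_univ, WJ, Subgroup.closure_le]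
  rintro _ ⟨j, -, rfl⟩
  have : wd D (j :: flatW G (C.getD j ([], [])).1) = wd D (flatW G (C.getD j ([], [])).2) := W_ext_sm fun i =>
    Fin.ext (by rw [h.wd_smul (by simpa using hf _), h.wd_smul (hf _)]; exact hC.2 j j.2 i i.2)
  rw [wd_cons, ← eq_mul_inv_iff_mul_eq] at this
  exact this ▸ mul_mem (wd_flatW_mem hG _) (inv_mem (wd_flatW_mem hG _))

theorem IsRefl.gen_cox {T : ℕ} (h : IsRefl D T) {M : CoxeterMatrix (Sm D)}
    (he : ∃ e : WG D ≃* M.Group, ∀ i, e (sr i) = M.simple i) (S : List (Sm D)) (hS : S.Nodup)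
    {C : List (List ℕ × List ℕ)} (hC : genOK D T (List.range D.rank :: S.map fun i => [i.1]) C = true) :
    ∃ T : Finset M.Group, T.card = S.length ∧ (∀ t ∈ T, ∃ (g : M.Group) (i : Sm D), t = g * M.simple i * g⁻¹) ∧
      Subgroup.closure (({((List.finRange D.rank).map M.simple).prod} : Set M.Group) ∪ ↑T) = ⊤ := by
  classical
  obtain ⟨e, he⟩ := he
  have hi : Function.Injective M.simple := fun i j e' => sr_injective (e.injective (by rw [he, he, e']))
  refine ⟨(S.map M.simple).toFinset, by rw [List.toFinset_card_of_nodup (hS.map hi), List.length_map], ?_, ?_⟩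
  · simp only [List.mem_toFinset, List.mem_map]
    rintro _ ⟨i, -, rfl⟩
    exact ⟨1, i, by simp⟩
  · refine Subgroup.comap_injective (f := e.toMonoidHom) e.surjective (h.gen_top (fun l hl => ?_) hC)
    refine Subgroup.subset_closure ?_
    rcases List.mem_cons.mp hl with rfl | hl
    · exact .inl (map_cox he)
    · obtain ⟨i, hi, rfl⟩ := List.mem_map.mp hl
      refine .inr ?_
      have : wd D [i.1] = sr i := by simpa using wd_map [i]
      simpa [this, he] using ⟨i, hi, rfl⟩

end Cfsg.Agent.Chev
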